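import Cfsg.Agent.CharactersDeep.MaxInduced
import Cfsg.Agent.Characters.Clifford
import Cfsg.Agent.Characters.GaloisIrr
import Cfsg.Agent.OddOrderCharacters.Clifford
import Cfsg.Agent.Characters.Brauer
import Cfsg.Agent.H684.Principal

/-!
# S4829, own characteristic: the step from a normal subgroup to the whole group (helper661)

`N` normal in `G`, `Θ` a character of `G`, `θ` an irreducible constituent of `Θ|N` of multiplicity one, and the only
one of its degree. Then exactly one irreducible constituent `χ` of `Θ` lies over `θ`; it extends `θ`, and it is fixed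
by every Galois map and every automorphism of `(G, N)` which fixes `Θ`.

* `ext_of_mult_one` : the statement above.
* `ext_unique` : `Θ` induced from a character `lam` of a supplement `B` of `N`.
* `ext_good` : the form for S4829: `θ` is the only constituent of degree prime to `p`, `U` a `p`-subgroup of `G` whose
  centralizer is a `p`-group: the extension lies in the principal block.
-/

set_option autoImplicit false

open Cfsg

namespace Cfsg.Agent.H661.OC

open Cfsg.Agent.Characters.Core Cfsg.Agent.Characters.Clifford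
open scoped ComplexConjugate

universe u

variable {G : Type u} [Group G] [Fintype G]

/-- a sum of products of natural numbers equal to one -/
theorem exists_of_sum_eq_one {ι : Type*} [Fintype ι] (c : ι → ℕ) (h : ∑ i, c i = 1) :
    ∃ i, c i = 1 ∧ ∀ j, c j ≠ 0 → j = i := by
  classical
  obtain ⟨i, hi⟩ : ∃ i, c i ≠ 0 := by
    by_contra hcon
    push Not at hcon
    rw [Finset.sum_congr rfl fun i _ => hcon i, Finset.sum_const_zero] at h
    exact zero_ne_one h
  have h1 := Finset.add_sum_erase Finset.univ c (Finset.mem_univ i)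
  refine ⟨i, by omega, fun j hj => ?_⟩
  by_contra hji
  have h2 : c j ≤ ∑ x ∈ Finset.univ.erase i, c x :=
    Finset.single_le_sum (f := c) (fun _ _ => Nat.zero_le _) (Finset.mem_erase.2 ⟨hji, Finset.mem_univ j⟩)
  omega

/-- A constituent of multiplicity one, alone in its degree, of the restriction to a normal subgroup of a character. -/
theorem ext_of_mult_one (N : Subgroup G) [N.Normal] [Fintype N] {Θ : G → ℂ} (hΘ : IsCharacter G Θ)
    {θ : N → ℂ} (hθ : IsIrrCharacter N θ) (h1 : classInner (fun n : N => Θ n) θ = 1)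
    (huniq : ∀ θ' : N → ℂ, IsIrrCharacter N θ' → classInner (fun n : N => Θ n) θ' ≠ 0 → θ' 1 = θ 1 → θ' = θ) :
    ∃ χ : G → ℂ, IsIrrCharacter G χ ∧ (fun n : N => χ n) = θ ∧ classInner Θ χ = 1 ∧
      (∀ χ' : G → ℂ, IsIrrCharacter G χ' → (fun n : N => χ' n) = θ → classInner Θ χ' ≠ 0 → χ' = χ) ∧
      (∀ k : ℕ, k.Coprime (Nat.card G) → (∀ g : G, Θ (g ^ k) = Θ g) → ∀ g : G, χ (g ^ k) = χ g) ∧
      (∀ α : G ≃* G, (∀ g : G, g ∈ N ↔ α g ∈ N) → (∀ g : G, Θ (α g) = Θ g) → ∀ g : G, χ (α g) = χ g) := by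
  classical
  have hfin : Finite (IrrCharacter G) := finite_irr
  have := Fintype.ofFinite (IrrCharacter G)
  have hfinN : Finite (IrrCharacter N) := finite_irr
  have := Fintype.ofFinite (IrrCharacter N)
  have hΘc : IsClassFunction G Θ := isCharacter_isClassFunction hΘ
  have hΘN : IsCharacter N (fun n : N => Θ n) := isCharacter_restrict N hΘ
  -- θ is invariant
  have hinv : ∀ g : G, θ ∘ (MulAut.conjNormal g : MulAut N) = θ := by
    intro g
    refine huniq _ (isIrr_conjNormal hθ g) ?_ ?_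
    · rw [classInner_restrict_conjNormal hΘc θ g, h1]
      exact one_ne_zero
    · simp
  -- irreducible characters with one constituent θ of multiplicity one extend θ
  have hext : ∀ χ : G → ℂ, IsIrrCharacter G χ → classInner (fun n : N => χ n) θ = 1 → (fun n : N => χ n) = θ := by
    intro χ hχ hχ1
    refine classFunction_ext (isCharacter_isClassFunction (isCharacter_restrict N (isIrr_isCharacter hχ)))
      (isIrr_isClassFunction hθ) fun ψ hψ => ?_
    by_cases hψθ : ψ = θ
    · rw [hψθ, hχ1, classInner_irr_self hθ]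
    · rw [classInner_irr_ne hθ hψ (fun h => hψθ h.symm)]
      by_contra hne
      obtain ⟨g, hg⟩ := exists_conj_of_constituents N hχ hθ hψ (by rw [hχ1]; exact one_ne_zero) hne
      exact hψθ (hg.trans (hinv g))
  -- the multiplicities
  have hA : ∀ χ : IrrCharacter G, ∃ n : ℕ, classInner Θ (χ : G → ℂ) = n :=
    fun χ => classInner_isNat hΘ (isIrr_isCharacter χ.2)
  have hB : ∀ χ : IrrCharacter G, ∃ n : ℕ, classInner (fun n : N => (χ : G → ℂ) n) θ = n :=
    fun χ => classInner_isNat (isCharacter_restrict N (isIrr_isCharacter χ.2)) (isIrr_isCharacter hθ)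
  choose a ha using hA
  choose b hb using hB
  have hsum : ∑ χ : IrrCharacter G, a χ * b χ = 1 := by
    have e1 : (fun n : N => Θ n) = ∑ χ : IrrCharacter G, (a χ : ℂ) • (fun n : N => (χ : G → ℂ) n) := by
      funext n
      conv_lhs => rw [classFunction_eq_sum hΘc]
      simp only [Finset.sum_apply, Pi.smul_apply]
      exact Finset.sum_congr rfl fun χ _ => by rw [ha χ]
    have e2 : classInner (fun n : N => Θ n) θ = ∑ χ : IrrCharacter G, (a χ : ℂ) * (b χ : ℂ) := by
      rw [e1, classInner_sum_left]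
      refine Finset.sum_congr rfl fun χ _ => ?_
      rw [classInner_smul_left, hb χ]
    rw [h1] at e2
    have e3 : ((∑ χ : IrrCharacter G, a χ * b χ : ℕ) : ℂ) = ((1 : ℕ) : ℂ) := by
      push_cast
      exact e2.symm
    exact_mod_cast e3
  obtain ⟨χ, hχ1, hχu⟩ := exists_of_sum_eq_one _ hsum
  have haχ : a χ = 1 := Nat.eq_one_of_mul_eq_one_right hχ1
  have hbχ : b χ = 1 := Nat.eq_one_of_mul_eq_one_left hχ1
  have hχN : (fun n : N => (χ : G → ℂ) n) = θ := hext χ χ.2 (by rw [hb χ, hbχ, Nat.cast_one])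
  have hχΘ : classInner Θ (χ : G → ℂ) = 1 := by rw [ha χ, haχ, Nat.cast_one]
  have hun : ∀ χ' : G → ℂ, IsIrrCharacter G χ' → (fun n : N => χ' n) = θ → classInner Θ χ' ≠ 0 →
      χ' = (χ : G → ℂ) := by
    intro χ' hχ' hN' hne
    have e1 : a ⟨χ', hχ'⟩ ≠ 0 := by
      intro h0
      apply hne
      have := ha ⟨χ', hχ'⟩
      rw [h0, Nat.cast_zero] at this
      exact this
    have e2 : b ⟨χ', hχ'⟩ ≠ 0 := by
      intro h0
      have := hb ⟨χ', hχ'⟩
      rw [h0, Nat.cast_zero] at this
      change classInner (fun n : N => χ' n) θ = 0 at this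
      rw [hN', classInner_irr_self hθ] at this
      exact one_ne_zero this
    exact congrArg Subtype.val (hχu ⟨χ', hχ'⟩ (mul_ne_zero e1 e2))
  refine ⟨χ, χ.2, hχN, hχΘ, hun, fun k hk hΘk => ?_, fun α hα hΘα => ?_⟩
  · -- Galois
    obtain ⟨σ, hσ⟩ := Cfsg.Agent.Characters.GaloisBasic.exists_ringEquiv_of_coprime (G := G) hk
    have hkN : k.Coprime (Nat.card N) := Nat.Coprime.coprime_dvd_right (Subgroup.card_subgroup_dvd_card N) hk
    have hθk : (fun n : N => θ (n ^ k)) = θ := by
      refine huniq _ (Cfsg.Agent.Characters.GaloisIrr.isIrr_pow hkN hθ) ?_ ?_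
      · have e1 : (fun n : N => Θ n) = fun n : N => σ (Θ n) := by
          funext n
          rw [hσ Θ hΘ, hΘk]
        have e2 : (fun n : N => θ (n ^ k)) = fun n : N => σ (θ n) := by
          funext n
          have e3 := congrFun hχN n
          have e4 := congrFun hχN (n ^ k)
          rw [← e3, ← e4, hσ χ (isIrr_isCharacter χ.2)]
          rfl
        rw [e1, e2, Cfsg.Agent.Characters.GaloisIrr.classInner_map σ (isIrr_isCharacter hθ), h1, map_one]
        exact one_ne_zero
      · show θ (1 ^ k) = θ 1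
        rw [one_pow]
    have hχk : (fun g : G => (χ : G → ℂ) (g ^ k)) = χ := by
      refine hun _ (Cfsg.Agent.Characters.GaloisIrr.isIrr_pow hk χ.2) ?_ ?_
      · funext n
        have e4 := congrFun hχN (n ^ k)
        have e5 := congrFun hθk n
        show (χ : G → ℂ) ((n : G) ^ k) = θ n
        rw [← e5, ← e4]
        rfl
      · have e1 : Θ = fun g : G => σ (Θ g) := by
          funext g
          rw [hσ Θ hΘ, hΘk]
        have e2 : (fun g : G => (χ : G → ℂ) (g ^ k)) = fun g : G => σ ((χ : G → ℂ) g) := by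
          funext g
          rw [hσ χ (isIrr_isCharacter χ.2)]
        rw [e1, e2, Cfsg.Agent.Characters.GaloisIrr.classInner_map σ (isIrr_isCharacter χ.2), hχΘ, map_one]
        exact one_ne_zero
    exact fun g => congrFun hχk g
  · -- automorphisms
    let αN : N ≃* N :=
      { toFun := fun n => ⟨α (n : G), (hα n).1 n.2⟩
        invFun := fun n => ⟨α.symm (n : G), (hα _).2 (by rw [MulEquiv.apply_symm_apply]; exact n.2)⟩
        left_inv := fun n => Subtype.ext (α.symm_apply_apply (n : G))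
        right_inv := fun n => Subtype.ext (α.apply_symm_apply (n : G))
        map_mul' := fun x y => Subtype.ext (map_mul α (x : G) (y : G)) }
    have hαN : ∀ n : N, ((αN n : N) : G) = α (n : G) := fun n => rfl
    have hθα : θ ∘ αN = θ := by
      refine huniq _ (isIrr_comp (αN : N →* N) αN.surjective hθ) ?_ ?_
      · have e1 : (fun n : N => Θ n) = (fun n : N => Θ n) ∘ αN := by
          funext n
          show Θ n = Θ ((αN n : N) : G)
          rw [hαN, hΘα]
        rw [e1]
        have e2 := classInner_comp_mulEquiv αN (fun n : N => Θ n) θ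
        rw [e2, h1]
        exact one_ne_zero
      · show θ (αN 1) = θ 1
        rw [map_one]
    have hχα : (χ : G → ℂ) ∘ α = χ := by
      refine hun _ (isIrr_comp (α : G →* G) α.surjective χ.2) ?_ ?_
      · funext n
        have e4 := congrFun hχN (αN n)
        have e5 := congrFun hθα n
        show (χ : G → ℂ) (α n) = θ n
        rw [← e5, Function.comp_apply, ← e4]
        rfl
      · have e1 : Θ = Θ ∘ α := by
          funext g
          exact (hΘα g).symm
        have e2 := classInner_comp_mulEquiv α Θ (χ : G → ℂ)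
        rw [← e1] at e2
        rw [e2, hχΘ]
        exact one_ne_zero
    exact fun g => congrFun hχα g

/-- the induced function of a power-invariant function is power-invariant -/
theorem indFun_pow (B : Subgroup G) (lam : B → ℂ) {k : ℕ} (hk : k.Coprime (Nat.card G))
    (hlam : ∀ b : B, lam (b ^ k) = lam b) (g : G) : indFun B lam (g ^ k) = indFun B lam g := by
  rw [indFun_apply, indFun_apply]
  congr 1
  refine Finset.sum_congr rfl fun x _ => ?_
  have e : x⁻¹ * g ^ k * x = (x⁻¹ * g * x) ^ k := by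
    have := conj_pow (i := k) (a := x⁻¹) (b := g)
    rw [inv_inv] at this
    exact this.symm
  rw [e]
  set y := x⁻¹ * g * x with hy
  by_cases hyB : y ∈ B
  · rw [extendByZero_of_mem B lam hyB, extendByZero_of_mem B lam (B.pow_mem hyB k)]
    exact hlam ⟨y, hyB⟩
  · have hyk : y ^ k ∉ B := by
      intro h
      apply hyB
      have hco : k.Coprime (orderOf y) := hk.coprime_dvd_right (orderOf_dvd_natCard y)
      obtain ⟨m, hm⟩ := exists_pow_eq_self_of_coprime hco
      rw [← hm]
      exact B.pow_mem h m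
    rw [extendByZero_of_notMem B lam hyB, extendByZero_of_notMem B lam hyk]

/-- the induced function of an `α`-invariant function is `α`-invariant -/
theorem indFun_aut (B : Subgroup G) (lam : B → ℂ) (α : G ≃* G) (hα : ∀ g : G, g ∈ B ↔ α g ∈ B)
    (hlam : ∀ (b : G) (hb : b ∈ B), lam ⟨α b, (hα b).1 hb⟩ = lam ⟨b, hb⟩) (g : G) :
    indFun B lam (α g) = indFun B lam g := by
  rw [indFun_apply, indFun_apply]
  congr 1
  refine (Fintype.sum_equiv α.toEquiv _ _ fun x => ?_).symm
  have e : (α.toEquiv x)⁻¹ * α g * α.toEquiv x = α (x⁻¹ * g * x) := by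
    show (α x)⁻¹ * α g * α x = α (x⁻¹ * g * x)
    rw [map_mul, map_mul, map_inv]
  rw [e]
  set y := x⁻¹ * g * x with hy
  by_cases hyB : y ∈ B
  · rw [extendByZero_of_mem B lam hyB, extendByZero_of_mem B lam ((hα y).1 hyB)]
    exact (hlam y hyB).symm
  · rw [extendByZero_of_notMem B lam hyB, extendByZero_of_notMem B lam (fun h => hyB ((hα y).2 h))]

/-- `ext_of_mult_one` for a character induced from a supplement `B` of `N`: the multiplicity and the uniqueness are
asked for the character of `N` induced from `N ⊓ B`. -/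
theorem ext_unique (N : Subgroup G) [N.Normal] [Fintype N] (B : Subgroup G) (hNB : N ⊔ B = ⊤)
    {lam : B → ℂ} (hlam : IsCharacter B lam) {θ : N → ℂ} (hθ : IsIrrCharacter N θ)
    (h1 : classInner (indFun (B.subgroupOf N) (fun j => lam ⟨(j : N), Subgroup.mem_subgroupOf.1 j.2⟩)) θ = 1)
    (huniq : ∀ θ' : N → ℂ, IsIrrCharacter N θ' →
      classInner (indFun (B.subgroupOf N) (fun j => lam ⟨(j : N), Subgroup.mem_subgroupOf.1 j.2⟩)) θ' ≠ 0 →
      θ' 1 = θ 1 → θ' = θ) :
    ∃ χ : G → ℂ, IsIrrCharacter G χ ∧ (fun n : N => χ n) = θ ∧ classInner (indFun B lam) χ = 1 ∧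
      (∀ χ' : G → ℂ, IsIrrCharacter G χ' → (fun n : N => χ' n) = θ → classInner (indFun B lam) χ' ≠ 0 → χ' = χ) ∧
      (∀ k : ℕ, k.Coprime (Nat.card G) → (∀ b : B, lam (b ^ k) = lam b) → ∀ g : G, χ (g ^ k) = χ g) ∧
      (∀ α : G ≃* G, (∀ g : G, g ∈ N ↔ α g ∈ N) → (hα : ∀ g : G, g ∈ B ↔ α g ∈ B) →
        (∀ (b : G) (hb : b ∈ B), lam ⟨α b, (hα b).1 hb⟩ = lam ⟨b, hb⟩) → ∀ g : G, χ (α g) = χ g) := by
  have hres : (fun n : N => indFun B lam n) =
      indFun (B.subgroupOf N) (fun j => lam ⟨(j : N), Subgroup.mem_subgroupOf.1 j.2⟩) := by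
    funext n
    exact Cfsg.Agent.CharactersDeep.MaxInduced.indFun_restrict N B hNB lam (isCharacter_isClassFunction hlam) n
  rw [← hres] at h1
  have hu : ∀ θ' : N → ℂ, IsIrrCharacter N θ' → classInner (fun n : N => indFun B lam n) θ' ≠ 0 →
      θ' 1 = θ 1 → θ' = θ := by
    intro θ' hθ' hne hd
    rw [hres] at hne
    exact huniq θ' hθ' hne hd
  obtain ⟨χ, hχ, hχN, hχ1, hχu, hχk, hχα⟩ :=
    ext_of_mult_one N (Cfsg.Agent.Characters.Brauer.isCharacter_indFun B hlam) hθ h1 hu
  exact ⟨χ, hχ, hχN, hχ1, hχu, fun k hk hl => hχk k hk (indFun_pow B lam hk hl),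
    fun α hαN hαB hl => hχα α hαN (indFun_aut B lam α hαB hl)⟩

/-- **The step for S4829 in own characteristic.** -/
theorem ext_good {p : ℕ} [Fact p.Prime] {M : Ideal AlgInt} (hM : IsPModular p M)
    (N : Subgroup G) [N.Normal] [Fintype N] (B : Subgroup G) (hNB : N ⊔ B = ⊤)
    {U : Subgroup G} (hU : IsPGroup p U) (hC : IsPGroup p (Subgroup.centralizer (U : Set G)))
    {lam : B → ℂ} (hlam : IsCharacter B lam) {θ : N → ℂ} (hθ : IsIrrCharacter N θ) (hp : ¬ p ∣ charDegree θ)
    (h1 : classInner (indFun (B.subgroupOf N) (fun j => lam ⟨(j : N), Subgroup.mem_subgroupOf.1 j.2⟩)) θ = 1)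
    (huniq : ∀ θ' : N → ℂ, IsIrrCharacter N θ' →
      classInner (indFun (B.subgroupOf N) (fun j => lam ⟨(j : N), Subgroup.mem_subgroupOf.1 j.2⟩)) θ' ≠ 0 →
      ¬ p ∣ charDegree θ' → θ' = θ) :
    ∃ χ : IrrCharacter G, (fun n : N => (χ : G → ℂ) n) = θ ∧ χ ∈ principalBlock M G ∧
      charDegree (χ : G → ℂ) = charDegree θ ∧
      (∀ k : ℕ, k.Coprime (Nat.card G) → (∀ b : B, lam (b ^ k) = lam b) → ∀ g : G, (χ : G → ℂ) (g ^ k) = (χ : G → ℂ) g) ∧
      (∀ α : G ≃* G, (∀ g : G, g ∈ N ↔ α g ∈ N) → (hα : ∀ g : G, g ∈ B ↔ α g ∈ B) →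
        (∀ (b : G) (hb : b ∈ B), lam ⟨α b, (hα b).1 hb⟩ = lam ⟨b, hb⟩) → ∀ g : G, (χ : G → ℂ) (α g) = (χ : G → ℂ) g) := by
  obtain ⟨χ, hχ, hχN, -, -, hχk, hχα⟩ := ext_unique N B hNB hlam hθ h1 (fun θ' hθ' hne hd =>
    huniq θ' hθ' hne (by
      have : charDegree θ' = charDegree θ := by
        show ⌊(θ' 1).re⌋₊ = ⌊(θ 1).re⌋₊
        rw [hd]
      rwa [this]))
  have hdeg : charDegree χ = charDegree θ := by
    have e : χ 1 = θ 1 := congrFun hχN 1
    show ⌊(χ 1).re⌋₊ = ⌊(θ 1).re⌋₊
    rw [e]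
  exact ⟨⟨χ, hχ⟩, hχN, Cfsg.Agent.H684.Principal.mem_of_not_dvd hM hU hC ⟨χ, hχ⟩ (by rw [hdeg]; exact hp), hdeg,
    hχk, hχα⟩

end Cfsg.Agent.H661.OC
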