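import Cfsg.Agent.H661.OC.OwnRX

/-!
# S4829: the part of a character over the characters of given degrees of a normal subgroup (helper661)

* `exists_part_deg` : the part `ψ` of `Θ` lying over the irreducible characters of `S` whose degree satisfies `P`.
* `witA_of_deg` : the witness of S4829 from a character `Θ` of `A` whose constituents on `S` of degree `d` (`p ∤ d`) have
  multiplicity one, are nontrivial and `Cyc p`; their number is prime to `p`.
-/

set_option autoImplicit false

open Cfsg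

namespace Cfsg.Agent.H661.OC

open Cfsg.Agent.Characters Cfsg.Agent.H770.CY
open scoped ComplexConjugate

universe u v

section part

variable {G : Type u} {S : Type v} [Group G] [Fintype G] [Group S] [Fintype S] {ι : S →* G}

/-- `χ` lies over a character of `S` whose degree satisfies `P` -/
def LiesD (P : ℕ → Prop) (ι : S →* G) (χ : G → ℂ) : Prop :=
  ∃ θ : IrrCharacter S, P (charDegree (θ : S → ℂ)) ∧ classInner (χ ∘ ι) (θ : S → ℂ) ≠ 0

/-- the part of `Θ` over the irreducible characters of `S` whose degree satisfies `P` -/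
theorem exists_part_deg (P : ℕ → Prop) (hι : Function.Injective ι) (hn : ι.range.Normal) {Θ : G → ℂ} (hΘ : IsCharacter G Θ) :
    ∃ ψ : G → ℂ, IsCharacter G ψ ∧
      (∀ θ : IrrCharacter S, P (charDegree (θ : S → ℂ)) → classInner (ψ ∘ ι) (θ : S → ℂ) = classInner (Θ ∘ ι) (θ : S → ℂ)) ∧
      (∀ θ : IrrCharacter S, ¬ P (charDegree (θ : S → ℂ)) → classInner (ψ ∘ ι) (θ : S → ℂ) = 0) ∧
      ∀ k : ℕ, k.Coprime (Nat.card G) → (∀ g : G, Θ (g ^ k) = Θ g) → ∀ g : G, ψ (g ^ k) = ψ g := by
  classical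
  have : Finite (IrrCharacter G) := Core.finite_irr
  let _ : Fintype (IrrCharacter G) := Fintype.ofFinite _
  have hΘc := Core.isCharacter_isClassFunction hΘ
  have hnat : ∀ χ : IrrCharacter G, ∃ n : ℕ, classInner Θ (χ : G → ℂ) = n :=
    fun χ => Core.classInner_isNat hΘ (Core.isIrr_isCharacter χ.2)
  choose a ha using hnat
  let c : IrrCharacter G → ℕ := fun χ => if LiesD P ι (χ : G → ℂ) then a χ else 0
  let ψ : G → ℂ := ∑ χ : IrrCharacter G, c χ • (χ : G → ℂ)
  have hψ : IsCharacter G ψ := Core.isCharacter_iff.2 ⟨c, rfl⟩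
  have e0 : ∀ x : G, ψ x = ∑ χ : IrrCharacter G, (c χ : ℂ) * (χ : G → ℂ) x := by
    intro x
    have h0 : ψ x = ∑ χ : IrrCharacter G, (c χ • (χ : G → ℂ)) x := Finset.sum_apply _ _ _
    rw [h0]
    exact Finset.sum_congr rfl fun χ _ => nsmul_eq_mul _ _
  have e1 : ψ ∘ ι = ∑ χ : IrrCharacter G, (c χ : ℂ) • ((χ : G → ℂ) ∘ ι) := by
    funext s
    rw [Function.comp_apply, e0]
    simp only [Function.comp_apply, Finset.sum_apply, Pi.smul_apply, smul_eq_mul]
  have e2 : Θ ∘ ι = ∑ χ : IrrCharacter G, (a χ : ℂ) • ((χ : G → ℂ) ∘ ι) := by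
    funext s
    rw [Function.comp_apply]
    conv_lhs => rw [Core.classFunction_eq_sum hΘc]
    simp only [Function.comp_apply, Finset.sum_apply, Pi.smul_apply]
    exact Finset.sum_congr rfl fun χ _ => by rw [ha χ]
  refine ⟨ψ, hψ, fun θ hd => ?_, fun θ hd => ?_, fun k hk hΘk => ?_⟩
  · rw [e1, e2, Core.classInner_sum_left, Core.classInner_sum_left]
    refine Finset.sum_congr rfl fun χ _ => ?_
    rw [Core.classInner_smul_left, Core.classInner_smul_left]
    by_cases hl : LiesD P ι (χ : G → ℂ)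
    · rw [show c χ = a χ from if_pos hl]
    · have h0 : classInner ((χ : G → ℂ) ∘ ι) (θ : S → ℂ) = 0 := by
        by_contra h
        exact hl ⟨θ, hd, h⟩
      rw [h0, mul_zero, mul_zero]
  · rw [e1, Core.classInner_sum_left]
    refine Finset.sum_eq_zero fun χ _ => ?_
    rw [Core.classInner_smul_left]
    by_cases hl : LiesD P ι (χ : G → ℂ)
    · obtain ⟨θ0, h0, h0'⟩ := hl
      have h3 : classInner ((χ : G → ℂ) ∘ ι) (θ : S → ℂ) = 0 := by
        by_contra h
        apply hd
        rw [charDegree_congr (deg_eq hι hn χ.2 θ0.2 θ.2 h0' h)]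
        exact h0
      rw [h3, mul_zero]
    · rw [show c χ = 0 from if_neg hl, Nat.cast_zero, zero_mul]
  · obtain ⟨σ, hσ⟩ := GaloisBasic.exists_ringEquiv_pow (Nat.card_pos (α := G)).ne' hk
    have hσG : ∀ (χ : G → ℂ), IsCharacter G χ → ∀ g : G, σ (χ g) = χ (g ^ k) := fun χ hχ g =>
      GaloisBasic.map_apply_card σ hσ hχ g
    have hcard : Nat.card S ∣ Nat.card G := by
      rw [Nat.card_congr (MonoidHom.ofInjective hι).toEquiv]
      exact Subgroup.card_subgroup_dvd_card _
    have hkS : k.Coprime (Nat.card S) := Nat.Coprime.coprime_dvd_right hcard hk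
    have hσS : ∀ (χ : S → ℂ), IsCharacter S χ → ∀ g : S, σ (χ g) = χ (g ^ k) := fun χ hχ g =>
      GaloisBasic.map_apply_card σ (fun z hz => hσ z (by
        obtain ⟨m, hm⟩ := hcard
        rw [hm, pow_mul, hz, one_pow])) hχ g
    let E : IrrCharacter G → IrrCharacter G := fun χ => ⟨fun g => (χ : G → ℂ) (g ^ k), GaloisIrr.isIrr_pow hk χ.2⟩
    have hEσ : ∀ χ : IrrCharacter G, ((E χ : IrrCharacter G) : G → ℂ) = fun g => σ ((χ : G → ℂ) g) := fun χ =>
      funext fun g => (hσG χ (Core.isIrr_isCharacter χ.2) g).symm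
    have hEinj : Function.Injective E := by
      intro χ χ' h
      apply Subtype.ext
      funext g
      have h1 := congrFun (congrArg Subtype.val h) g
      rw [hEσ, hEσ] at h1
      exact σ.injective h1
    have hEb : Function.Bijective E := Finite.injective_iff_bijective.1 hEinj
    have haE : ∀ χ, a (E χ) = a χ := by
      intro χ
      have h1 : classInner Θ ((E χ : IrrCharacter G) : G → ℂ) = σ (classInner Θ (χ : G → ℂ)) := by
        rw [← GaloisIrr.classInner_map σ (Core.isIrr_isCharacter χ.2), hEσ]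
        congr 1
        funext g
        rw [hσG Θ hΘ, hΘk]
      rw [ha, ha, map_natCast] at h1
      exact_mod_cast h1
    -- transport of constituents
    have hcon : ∀ (χ : IrrCharacter G) (θ : IrrCharacter S), classInner ((χ : G → ℂ) ∘ ι) (θ : S → ℂ) ≠ 0 →
        classInner (((E χ : IrrCharacter G) : G → ℂ) ∘ ι) (fun s => (θ : S → ℂ) (s ^ k)) ≠ 0 := by
      intro χ θ h
      have h1 : (((E χ : IrrCharacter G) : G → ℂ) ∘ ι) = fun s => σ (((χ : G → ℂ) ∘ ι) s) := by
        funext s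
        rw [Function.comp_apply, hEσ]
        rfl
      have h2 : (fun s => (θ : S → ℂ) (s ^ k)) = fun s => σ ((θ : S → ℂ) s) :=
        funext fun s => (hσS θ (Core.isIrr_isCharacter θ.2) s).symm
      rw [h1, h2, GaloisIrr.classInner_map σ (Core.isIrr_isCharacter θ.2)]
      exact fun h3 => h (σ.injective (by rw [h3, map_zero]))
    have hpdeg : ∀ θ : S → ℂ, charDegree (fun s => θ (s ^ k)) = charDegree θ := fun θ =>
      charDegree_congr (by show θ (1 ^ k) = θ 1; rw [one_pow])
    have hL : ∀ χ : IrrCharacter G, LiesD P ι (χ : G → ℂ) ↔ LiesD P ι ((E χ : IrrCharacter G) : G → ℂ) := by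
      intro χ
      constructor
      · rintro ⟨θ, h1, h2⟩
        exact ⟨⟨fun s => (θ : S → ℂ) (s ^ k), GaloisIrr.isIrr_pow hkS θ.2⟩, by
          show P (charDegree (fun s => (θ : S → ℂ) (s ^ k)))
          rw [hpdeg]
          exact h1, hcon χ θ h2⟩
      · rintro ⟨θ0, h1, h2⟩
        obtain ⟨θ, hθ⟩ : ∃ θ : IrrCharacter S, classInner ((χ : G → ℂ) ∘ ι) (θ : S → ℂ) ≠ 0 := by
          by_contra hcon2
          push Not at hcon2
          have h3 : (χ : G → ℂ) ∘ ι = 0 := Core.classFunction_eq_zero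
            (Core.isCharacter_isClassFunction (Core.isCharacter_comp ι (Core.isIrr_isCharacter χ.2)))
            fun φ hφ => hcon2 ⟨φ, hφ⟩
          have h4 := congrFun h3 1
          rw [Function.comp_apply, map_one] at h4
          exact Core.isIrr_apply_one_ne_zero χ.2 h4
        refine ⟨θ, ?_, hθ⟩
        have h5 := deg_eq hι hn (E χ).2 θ0.2 (GaloisIrr.isIrr_pow hkS θ.2) h2 (hcon χ θ hθ)
        rw [← hpdeg (θ : S → ℂ), charDegree_congr h5]
        exact h1
    have hcE : ∀ χ, c (E χ) = c χ := by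
      intro χ
      by_cases hl : LiesD P ι (χ : G → ℂ)
      · rw [show c χ = a χ from if_pos hl, show c (E χ) = a (E χ) from if_pos ((hL χ).1 hl), haE]
      · rw [show c χ = 0 from if_neg hl, show c (E χ) = 0 from if_neg (fun h => hl ((hL χ).2 h))]
    intro g
    rw [e0, e0]
    refine Fintype.sum_bijective E hEb _ _ fun χ => ?_
    rw [hcE]

end part

section wit

variable {p : ℕ} {S : Type u} [Group S] [Fintype S]

/-- **the witness from the constituents of degree `d`** -/
theorem witA_of_deg [Fact p.Prime] {M : Ideal AlgInt} (hM : IsPModular p M) (A : Subgroup (MulAut S))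
    (hA : ∀ s : S, MulAut.conj s ∈ A) (hinj : Function.Injective (MulAut.conj : S →* MulAut S))
    (hC : ∀ a : A, ¬ p ∣ orderOf a → (∃ Q : Sylow p S, ∀ x ∈ Q, (a : MulAut S) x = x) → a = 1)
    {Θ : A → ℂ} (hΘ : IsCharacter A Θ) (hΘc : Cyc p Θ) {d : ℕ} (hpd : ¬ p ∣ d)
    (hcard : ¬ p ∣ Nat.card {θ : IrrCharacter S // charDegree (θ : S → ℂ) = d ∧ classInner (res hA Θ) (θ : S → ℂ) ≠ 0})
    (h3 : ∀ θ : IrrCharacter S, charDegree (θ : S → ℂ) = d → classInner (res hA Θ) (θ : S → ℂ) ≠ 0 →
      classInner (res hA Θ) (θ : S → ℂ) = 1 ∧ (θ : S → ℂ) ≠ (fun _ => 1) ∧ Cyc p (θ : S → ℂ)) :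
    ∃ Ψ : A → ℂ, WitA p M S A hA Ψ := by
  classical
  have : Fintype A := Fintype.ofFinite _
  have : Finite (IrrCharacter S) := Core.finite_irr
  let _ : Fintype (IrrCharacter S) := Fintype.ofFinite _
  let ι : S →* A := (MulAut.conj : S →* MulAut S).codRestrict A hA
  have hι : Function.Injective ι := fun x y h => hinj (congrArg Subtype.val h)
  obtain ⟨ψ, hψ, k1, k2, k3⟩ := exists_part_deg (fun m => m = d) hι (range_normal A hA) hΘ
  have hψres : ψ ∘ ι = res hA ψ := rfl
  have hΘres : Θ ∘ ι = res hA Θ := rfl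
  rw [hψres, hΘres] at k1
  rw [hψres] at k2
  have hmf : ∀ θ : IrrCharacter S, classInner (res hA ψ) (θ : S → ℂ) =
      if charDegree (θ : S → ℂ) = d ∧ classInner (res hA Θ) (θ : S → ℂ) ≠ 0 then 1 else 0 := by
    intro θ
    by_cases h5 : charDegree (θ : S → ℂ) = d
    · rw [k1 θ h5]
      by_cases h7 : classInner (res hA Θ) (θ : S → ℂ) = 0
      · rw [if_neg (fun h => h.2 h7), h7]
      · rw [if_pos ⟨h5, h7⟩, (h3 θ h5 h7).1]
    · rw [k2 θ h5, if_neg (fun h => h5 h.1)]
  refine ⟨ψ, ⟨hψ, fun k hk hkp => k3 k hk (hΘc k hk hkp), ?_, ?_, ?_⟩⟩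
  · refine ⟨Nat.card {θ : IrrCharacter S // charDegree (θ : S → ℂ) = d ∧ classInner (res hA Θ) (θ : S → ℂ) ≠ 0} * d, ?_,
      fun h => ?_⟩
    · have e1 := congrFun (Core.classFunction_eq_sum (Core.isCharacter_isClassFunction (Core.isCharacter_comp ι hψ))) 1
      rw [Function.comp_apply, map_one] at e1
      rw [e1, hψres]
      simp only [Finset.sum_apply, Pi.smul_apply, smul_eq_mul]
      rw [Finset.sum_congr rfl fun θ _ => by rw [hmf θ, Cfsg.Agent.Blocks.Basic.irr_one_eq_charDegree θ.2]]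
      have e2 : ∀ θ : IrrCharacter S, (if charDegree (θ : S → ℂ) = d ∧ classInner (res hA Θ) (θ : S → ℂ) ≠ 0 then (1 : ℂ) else 0) *
          (charDegree (θ : S → ℂ) : ℂ) =
          if charDegree (θ : S → ℂ) = d ∧ classInner (res hA Θ) (θ : S → ℂ) ≠ 0 then (d : ℂ) else 0 := by
        intro θ
        split_ifs with h
        · rw [h.1, one_mul]
        · rw [zero_mul]
      rw [Finset.sum_congr rfl fun θ _ => e2 θ, ← Finset.sum_filter, Finset.sum_const, nsmul_eq_mul, Nat.card_eq_fintype_card,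
        Fintype.card_subtype]
      push_cast
      rfl
    · rcases (Nat.Prime.dvd_mul (Fact.out : p.Prime)).1 h with h | h
      · exact hcard h
      · exact hpd h
  · intro θ
    rw [mul_eq, hmf θ]
    split_ifs with h
    · exact Or.inr ⟨rfl, (h3 θ h.1 h.2).2⟩
    · exact Or.inl rfl
  · intro a ha hQ
    rw [hC a ha hQ, sub_self]
    exact ⟨0, 1, M.zero_mem, fun h => hM.2.1.ne_top (M.eq_top_of_isUnit_mem h isUnit_one), by simp⟩

end wit

end Cfsg.Agent.H661.OC
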