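import Cfsg.Agent.H661.OC.OwnRX

/-!
# S4829: the part of a character over a stable set of characters of a normal subgroup (helper661)

* `exists_part_set` : the part `ψ` of `Θ` lying over a set `P` of irreducible characters of `S`.
* `witA_of_set` : the witness of S4829 from a character `Θ` of `A` whose constituents on `S` in the `A`-stable and Galois
  stable set `P` have degree `d` (`p ∤ d`), multiplicity one, are nontrivial and `Cyc p`; their number is prime to `p`.
-/

set_option autoImplicit false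

open Cfsg

namespace Cfsg.Agent.H661.OC

open Cfsg.Agent.Characters Cfsg.Agent.H770.CY
open scoped ComplexConjugate

universe u v

section part

variable {G : Type u} {S : Type v} [Group G] [Fintype G] [Group S] [Fintype S] {ι : S →* G}

/-- `χ` lies over a character of `S` in `P` -/
def LiesS (P : Set (IrrCharacter S)) (ι : S →* G) (χ : G → ℂ) : Prop :=
  ∃ θ : IrrCharacter S, θ ∈ P ∧ classInner (χ ∘ ι) (θ : S → ℂ) ≠ 0

/-- the part of `Θ` over a set of irreducible characters of `S` closed under conjugation and Galois maps -/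
theorem exists_part_set (P : Set (IrrCharacter S))
    (hP1 : ∀ χ : G → ℂ, IsIrrCharacter G χ → ∀ θ θ' : IrrCharacter S, classInner (χ ∘ ι) (θ : S → ℂ) ≠ 0 →
      classInner (χ ∘ ι) (θ' : S → ℂ) ≠ 0 → θ ∈ P → θ' ∈ P)
    (hP2 : ∀ k : ℕ, k.Coprime (Nat.card G) → ∀ θ θ' : IrrCharacter S, (∀ s, (θ' : S → ℂ) s = (θ : S → ℂ) (s ^ k)) →
      (θ' ∈ P ↔ θ ∈ P)) (hι : Function.Injective ι) (_hn : ι.range.Normal) {Θ : G → ℂ} (hΘ : IsCharacter G Θ) :
    ∃ ψ : G → ℂ, IsCharacter G ψ ∧
      (∀ θ : IrrCharacter S, θ ∈ P → classInner (ψ ∘ ι) (θ : S → ℂ) = classInner (Θ ∘ ι) (θ : S → ℂ)) ∧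
      (∀ θ : IrrCharacter S, θ ∉ P → classInner (ψ ∘ ι) (θ : S → ℂ) = 0) ∧
      ∀ k : ℕ, k.Coprime (Nat.card G) → (∀ g : G, Θ (g ^ k) = Θ g) → ∀ g : G, ψ (g ^ k) = ψ g := by
  classical
  have : Finite (IrrCharacter G) := Core.finite_irr
  let _ : Fintype (IrrCharacter G) := Fintype.ofFinite _
  have hΘc := Core.isCharacter_isClassFunction hΘ
  have hnat : ∀ χ : IrrCharacter G, ∃ n : ℕ, classInner Θ (χ : G → ℂ) = n :=
    fun χ => Core.classInner_isNat hΘ (Core.isIrr_isCharacter χ.2)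
  choose a ha using hnat
  let c : IrrCharacter G → ℕ := fun χ => if LiesS P ι (χ : G → ℂ) then a χ else 0
  let ψ : G → ℂ := ∑ χ : IrrCharacter G, c χ • (χ : G → ℂ)
  have hψ : IsCharacter G ψ := Core.isCharacter_iff.2 ⟨c, rfl⟩
  have e0 : ∀ x : G, ψ x = ∑ χ : IrrCharacter G, (c χ : ℂ) * (χ : G → ℂ) x := by
    intro x
    have h0 : ψ x = ∑ χ : IrrCharacter G, (c χ • (χ : G → ℂ)) x := Finset.sum_apply _ _ _
    rw [h0]
    exact Finset.sum_congr rfl fun χ _ => nsmul_eq_mul _ _
  have e1 : ψ ∘ ι = ∑ χ : IrrCharacter G, (c χ : ℂ) • ((χ : G → ℂ) ∘ ι) := by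
    funext s
    rw [Function.comp_apply, e0]
    simp only [Function.comp_apply, Finset.sum_apply, Pi.smul_apply, smul_eq_mul]
  have e2 : Θ ∘ ι = ∑ χ : IrrCharacter G, (a χ : ℂ) • ((χ : G → ℂ) ∘ ι) := by
    funext s
    rw [Function.comp_apply]
    conv_lhs => rw [Core.classFunction_eq_sum hΘc]
    simp only [Function.comp_apply, Finset.sum_apply, Pi.smul_apply]
    exact Finset.sum_congr rfl fun χ _ => by rw [ha χ]
  refine ⟨ψ, hψ, fun θ hd => ?_, fun θ hd => ?_, fun k hk hΘk => ?_⟩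
  · rw [e1, e2, Core.classInner_sum_left, Core.classInner_sum_left]
    refine Finset.sum_congr rfl fun χ _ => ?_
    rw [Core.classInner_smul_left, Core.classInner_smul_left]
    by_cases hl : LiesS P ι (χ : G → ℂ)
    · rw [show c χ = a χ from if_pos hl]
    · have h0 : classInner ((χ : G → ℂ) ∘ ι) (θ : S → ℂ) = 0 := by
        by_contra h
        exact hl ⟨θ, hd, h⟩
      rw [h0, mul_zero, mul_zero]
  · rw [e1, Core.classInner_sum_left]
    refine Finset.sum_eq_zero fun χ _ => ?_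
    rw [Core.classInner_smul_left]
    by_cases hl : LiesS P ι (χ : G → ℂ)
    · obtain ⟨θ0, h0, h0'⟩ := hl
      have h3 : classInner ((χ : G → ℂ) ∘ ι) (θ : S → ℂ) = 0 := by
        by_contra h
        exact hd (hP1 χ χ.2 θ0 θ h0' h h0)
      rw [h3, mul_zero]
    · rw [show c χ = 0 from if_neg hl, Nat.cast_zero, zero_mul]
  · obtain ⟨σ, hσ⟩ := GaloisBasic.exists_ringEquiv_pow (Nat.card_pos (α := G)).ne' hk
    have hσG : ∀ (χ : G → ℂ), IsCharacter G χ → ∀ g : G, σ (χ g) = χ (g ^ k) := fun χ hχ g =>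
      GaloisBasic.map_apply_card σ hσ hχ g
    have hcard : Nat.card S ∣ Nat.card G := by
      rw [Nat.card_congr (MonoidHom.ofInjective hι).toEquiv]
      exact Subgroup.card_subgroup_dvd_card _
    have hkS : k.Coprime (Nat.card S) := Nat.Coprime.coprime_dvd_right hcard hk
    have hσS : ∀ (χ : S → ℂ), IsCharacter S χ → ∀ g : S, σ (χ g) = χ (g ^ k) := fun χ hχ g =>
      GaloisBasic.map_apply_card σ (fun z hz => hσ z (by
        obtain ⟨m, hm⟩ := hcard
        rw [hm, pow_mul, hz, one_pow])) hχ g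
    let E : IrrCharacter G → IrrCharacter G := fun χ => ⟨fun g => (χ : G → ℂ) (g ^ k), GaloisIrr.isIrr_pow hk χ.2⟩
    have hEσ : ∀ χ : IrrCharacter G, ((E χ : IrrCharacter G) : G → ℂ) = fun g => σ ((χ : G → ℂ) g) := fun χ =>
      funext fun g => (hσG χ (Core.isIrr_isCharacter χ.2) g).symm
    have hEinj : Function.Injective E := by
      intro χ χ' h
      apply Subtype.ext
      funext g
      have h1 := congrFun (congrArg Subtype.val h) g
      rw [hEσ, hEσ] at h1
      exact σ.injective h1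
    have hEb : Function.Bijective E := Finite.injective_iff_bijective.1 hEinj
    have haE : ∀ χ, a (E χ) = a χ := by
      intro χ
      have h1 : classInner Θ ((E χ : IrrCharacter G) : G → ℂ) = σ (classInner Θ (χ : G → ℂ)) := by
        rw [← GaloisIrr.classInner_map σ (Core.isIrr_isCharacter χ.2), hEσ]
        congr 1
        funext g
        rw [hσG Θ hΘ, hΘk]
      rw [ha, ha, map_natCast] at h1
      exact_mod_cast h1
    -- transport of constituents
    have hcon : ∀ (χ : IrrCharacter G) (θ : IrrCharacter S), classInner ((χ : G → ℂ) ∘ ι) (θ : S → ℂ) ≠ 0 →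
        classInner (((E χ : IrrCharacter G) : G → ℂ) ∘ ι) (fun s => (θ : S → ℂ) (s ^ k)) ≠ 0 := by
      intro χ θ h
      have h1 : (((E χ : IrrCharacter G) : G → ℂ) ∘ ι) = fun s => σ (((χ : G → ℂ) ∘ ι) s) := by
        funext s
        rw [Function.comp_apply, hEσ]
        rfl
      have h2 : (fun s => (θ : S → ℂ) (s ^ k)) = fun s => σ ((θ : S → ℂ) s) :=
        funext fun s => (hσS θ (Core.isIrr_isCharacter θ.2) s).symm
      rw [h1, h2, GaloisIrr.classInner_map σ (Core.isIrr_isCharacter θ.2)]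
      exact fun h3 => h (σ.injective (by rw [h3, map_zero]))
    have hL : ∀ χ : IrrCharacter G, LiesS P ι (χ : G → ℂ) ↔ LiesS P ι ((E χ : IrrCharacter G) : G → ℂ) := by
      intro χ
      constructor
      · rintro ⟨θ, h1, h2⟩
        exact ⟨⟨fun s => (θ : S → ℂ) (s ^ k), GaloisIrr.isIrr_pow hkS θ.2⟩, (hP2 k hk _ _ fun s => rfl).2 h1, hcon χ θ h2⟩
      · rintro ⟨θ0, h1, h2⟩
        obtain ⟨θ, hθ⟩ : ∃ θ : IrrCharacter S, classInner ((χ : G → ℂ) ∘ ι) (θ : S → ℂ) ≠ 0 := by
          by_contra hcon2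
          push Not at hcon2
          have h3 : (χ : G → ℂ) ∘ ι = 0 := Core.classFunction_eq_zero
            (Core.isCharacter_isClassFunction (Core.isCharacter_comp ι (Core.isIrr_isCharacter χ.2)))
            fun φ hφ => hcon2 ⟨φ, hφ⟩
          have h4 := congrFun h3 1
          rw [Function.comp_apply, map_one] at h4
          exact Core.isIrr_apply_one_ne_zero χ.2 h4
        refine ⟨θ, ?_, hθ⟩
        have h5 : (⟨fun s => (θ : S → ℂ) (s ^ k), GaloisIrr.isIrr_pow hkS θ.2⟩ : IrrCharacter S) ∈ P :=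
          hP1 _ (E χ).2 θ0 _ h2 (hcon χ θ hθ) h1
        exact (hP2 k hk θ _ fun s => rfl).1 h5
    have hcE : ∀ χ, c (E χ) = c χ := by
      intro χ
      by_cases hl : LiesS P ι (χ : G → ℂ)
      · rw [show c χ = a χ from if_pos hl, show c (E χ) = a (E χ) from if_pos ((hL χ).1 hl), haE]
      · rw [show c χ = 0 from if_neg hl, show c (E χ) = 0 from if_neg (fun h => hl ((hL χ).2 h))]
    intro g
    rw [e0, e0]
    refine Fintype.sum_bijective E hEb _ _ fun χ => ?_
    rw [hcE]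

end part

section wit

variable {p : ℕ} {S : Type u} [Group S] [Fintype S]

/-- the constituents of the restriction to `S` of an irreducible character of `A` are conjugate under `A` -/
theorem conj_of_constituents (A : Subgroup (MulAut S)) (hA : ∀ s : S, MulAut.conj s ∈ A)
    (hinj : Function.Injective (MulAut.conj : S →* MulAut S)) {χ : A → ℂ} (hχ : IsIrrCharacter A χ) {θ θ' : S → ℂ}
    (hθ : IsIrrCharacter S θ) (hθ' : IsIrrCharacter S θ') (h1 : classInner (res hA χ) θ ≠ 0)
    (h2 : classInner (res hA χ) θ' ≠ 0) : ∃ a : A, ∀ s : S, θ' s = θ ((a : MulAut S) s) := by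
  classical
  have : Fintype A := Fintype.ofFinite _
  let ι : S →* A := (MulAut.conj : S →* MulAut S).codRestrict A hA
  have hι : Function.Injective ι := fun x y h => hinj (congrArg Subtype.val h)
  have hn : ι.range.Normal := range_normal A hA
  have : Fintype ι.range := Fintype.ofFinite _
  let e : S ≃* ι.range := MonoidHom.ofInjective hι
  have key : ∀ φ : S → ℂ, classInner (fun n : ι.range => χ n) (φ ∘ e.symm) = classInner (res hA χ) φ := by
    intro φ
    have h3 := Clifford.classInner_comp_mulEquiv e (fun n : ι.range => χ n) (φ ∘ e.symm)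
    rw [← h3]
    congr 1
    funext s
    show φ (e.symm (e s)) = φ s
    rw [MulEquiv.symm_apply_apply]
  obtain ⟨g, hg⟩ := Clifford.exists_conj_of_constituents ι.range hχ
    (Core.isIrr_comp (e.symm : ι.range →* S) e.symm.surjective hθ)
    (Core.isIrr_comp (e.symm : ι.range →* S) e.symm.surjective hθ') (by
      show classInner (fun n : ι.range => χ n) (θ ∘ e.symm) ≠ 0
      rwa [key]) (by
      show classInner (fun n : ι.range => χ n) (θ' ∘ e.symm) ≠ 0
      rwa [key])
  refine ⟨g, fun s => ?_⟩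
  have h4 := congrFun hg (e s)
  have h5 : (MulAut.conjNormal g : MulAut ι.range) (e s) = e ((g : MulAut S) s) := by
    apply Subtype.ext
    apply Subtype.ext
    apply MulEquiv.ext
    intro x
    show (g : MulAut S) (s * (g : MulAut S)⁻¹ x * s⁻¹) = (g : MulAut S) s * x * ((g : MulAut S) s)⁻¹
    rw [map_mul, map_mul, map_inv, MulAut.apply_inv_self]
  have h6 : θ' (e.symm (e s)) = θ (e.symm ((MulAut.conjNormal g : MulAut ι.range) (e s))) := h4
  rwa [h5, MulEquiv.symm_apply_apply, MulEquiv.symm_apply_apply] at h6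

/-- **the witness from the constituents in a stable set** -/
theorem witA_of_set [Fact p.Prime] {M : Ideal AlgInt} (hM : IsPModular p M) (A : Subgroup (MulAut S))
    (hA : ∀ s : S, MulAut.conj s ∈ A) (hinj : Function.Injective (MulAut.conj : S →* MulAut S))
    (hC : ∀ a : A, ¬ p ∣ orderOf a → (∃ Q : Sylow p S, ∀ x ∈ Q, (a : MulAut S) x = x) → a = 1)
    {Θ : A → ℂ} (hΘ : IsCharacter A Θ) (hΘc : Cyc p Θ) (P : Set (IrrCharacter S))
    (hP1 : ∀ θ θ' : IrrCharacter S, θ ∈ P → (∃ a ∈ A, ∀ s : S, (θ' : S → ℂ) s = (θ : S → ℂ) (a s)) → θ' ∈ P)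
    (hP2 : ∀ k : ℕ, k.Coprime (Nat.card A) → ∀ θ θ' : IrrCharacter S, (∀ s, (θ' : S → ℂ) s = (θ : S → ℂ) (s ^ k)) →
      (θ' ∈ P ↔ θ ∈ P)) {d : ℕ} (hpd : ¬ p ∣ d)
    (hcard : ¬ p ∣ Nat.card {θ : IrrCharacter S // θ ∈ P ∧ classInner (res hA Θ) (θ : S → ℂ) ≠ 0})
    (h3 : ∀ θ : IrrCharacter S, θ ∈ P → classInner (res hA Θ) (θ : S → ℂ) ≠ 0 →
      charDegree (θ : S → ℂ) = d ∧ classInner (res hA Θ) (θ : S → ℂ) = 1 ∧ (θ : S → ℂ) ≠ (fun _ => 1) ∧
        Cyc p (θ : S → ℂ)) :
    ∃ Ψ : A → ℂ, WitA p M S A hA Ψ := by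
  classical
  have : Fintype A := Fintype.ofFinite _
  have : Finite (IrrCharacter S) := Core.finite_irr
  let _ : Fintype (IrrCharacter S) := Fintype.ofFinite _
  let ι : S →* A := (MulAut.conj : S →* MulAut S).codRestrict A hA
  have hι : Function.Injective ι := fun x y h => hinj (congrArg Subtype.val h)
  obtain ⟨ψ, hψ, k1, k2, k3⟩ := exists_part_set P (fun χ hχ θ θ' h4 h5 h6 => by
    obtain ⟨a, ha⟩ := conj_of_constituents A hA hinj hχ θ.2 θ'.2 h4 h5
    exact hP1 θ θ' h6 ⟨a, a.2, ha⟩) hP2 hι (range_normal A hA) hΘ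
  have hψres : ψ ∘ ι = res hA ψ := rfl
  have hΘres : Θ ∘ ι = res hA Θ := rfl
  rw [hψres, hΘres] at k1
  rw [hψres] at k2
  have hmf : ∀ θ : IrrCharacter S, classInner (res hA ψ) (θ : S → ℂ) =
      if θ ∈ P ∧ classInner (res hA Θ) (θ : S → ℂ) ≠ 0 then 1 else 0 := by
    intro θ
    by_cases h5 : θ ∈ P
    · rw [k1 θ h5]
      by_cases h7 : classInner (res hA Θ) (θ : S → ℂ) = 0
      · rw [if_neg (fun h => h.2 h7), h7]
      · rw [if_pos ⟨h5, h7⟩, (h3 θ h5 h7).2.1]
    · rw [k2 θ h5, if_neg (fun h => h5 h.1)]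
  refine ⟨ψ, ⟨hψ, fun k hk hkp => k3 k hk (hΘc k hk hkp), ?_, ?_, ?_⟩⟩
  · refine ⟨Nat.card {θ : IrrCharacter S // θ ∈ P ∧ classInner (res hA Θ) (θ : S → ℂ) ≠ 0} * d, ?_,
      fun h => ?_⟩
    · have e1 := congrFun (Core.classFunction_eq_sum (Core.isCharacter_isClassFunction (Core.isCharacter_comp ι hψ))) 1
      rw [Function.comp_apply, map_one] at e1
      rw [e1, hψres]
      simp only [Finset.sum_apply, Pi.smul_apply, smul_eq_mul]
      rw [Finset.sum_congr rfl fun θ _ => by rw [hmf θ, Cfsg.Agent.Blocks.Basic.irr_one_eq_charDegree θ.2]]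
      have e2 : ∀ θ : IrrCharacter S, (if θ ∈ P ∧ classInner (res hA Θ) (θ : S → ℂ) ≠ 0 then (1 : ℂ) else 0) *
          (charDegree (θ : S → ℂ) : ℂ) =
          if θ ∈ P ∧ classInner (res hA Θ) (θ : S → ℂ) ≠ 0 then (d : ℂ) else 0 := by
        intro θ
        split_ifs with h
        · rw [(h3 θ h.1 h.2).1, one_mul]
        · rw [zero_mul]
      rw [Finset.sum_congr rfl fun θ _ => e2 θ, ← Finset.sum_filter, Finset.sum_const, nsmul_eq_mul, Nat.card_eq_fintype_card,
        Fintype.card_subtype]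
      push_cast
      rfl
    · rcases (Nat.Prime.dvd_mul (Fact.out : p.Prime)).1 h with h | h
      · exact hcard h
      · exact hpd h
  · intro θ
    rw [mul_eq, hmf θ]
    split_ifs with h
    · exact Or.inr ⟨rfl, (h3 θ h.1 h.2).2.2⟩
    · exact Or.inl rfl
  · intro a ha hQ
    rw [hC a ha hQ, sub_self]
    exact ⟨0, 1, M.zero_mem, fun h => hM.2.1.ne_top (M.eq_top_of_isUnit_mem h isUnit_one), by simp⟩

end wit

end Cfsg.Agent.H661.OC
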